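import Cfsg.Agent.H129.TorusCent

/-!
# Centralisers of families of torus elements (helper105)

`mem_TT_of_comm_fam` : if no root and no element `≠ 1` of the Weyl group is trivial on the family `t i` of torus
elements, then the centraliser of the family is the torus.
-/

set_option autoImplicit false
set_option linter.unusedSectionVars false

namespace Cfsg.Agent.H105.Sc

open CoxeterSystem Cfsg Cfsg.Lie Cfsg.Lie.ChevalleyDatum
open Cfsg.Agent.ChevalleyStructure Cfsg.Agent.ChevalleyStructure.Elts Cfsg.Agent.ChevalleyStructure.CoxeterGeom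
  Cfsg.Agent.ChevalleyStructure.CoxeterGeomTypes Cfsg.Agent.ChevalleyStructure.NPerm
open Cfsg.Agent.Tits.Roots Cfsg.Agent.Tits.Core Cfsg.Agent.Nodes Cfsg.Agent.Nodes.Reps Cfsg.Agent.Nodes.BNOf
  Cfsg.Agent.Nodes.RGDChev Cfsg.Agent.Nodes.Bruhat Cfsg.Agent.Nodes.SubComb Cfsg.Agent.Nodes.Coroot
open Cfsg.Agent.KFacts.RgdField Cfsg.Agent.KFacts.RgdChevCoord Cfsg.Agent.BpExc.TorCent Cfsg.Agent.BpExc.TorChev
open Cfsg.Agent.GpExc.Field Cfsg.Agent.BpExc.Tow Cfsg.Agent.BpExc.TowChev Cfsg.Agent.BpExc.Fr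
  Cfsg.Agent.BpExc.LangFr Cfsg.Agent.LangThm Cfsg.Agent.BpExc Cfsg.Agent.H129.TorusChar

universe u

variable {D : ChevalleyDatum} {l : ℕ} {M : CoxeterMatrix (Fin l)} (hp : IsType D l M) {k : Type u} [Field k]
  {W : Type*} [Group W] (cs : CoxeterSystem M W)

/-- **The centraliser of a family of torus elements is the torus.** -/
theorem mem_TT_of_comm_fam [Finite W] (hk : LocFin k) (p : ℕ) [Fact p.Prime] [CharP k p] {ι : Type*} [Finite ι]
    {t : ι → ↥(D.group k)} (ht : ∀ i, t i ∈ TT D k)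
    (h1 : ∀ a, IsRoot cs hp.isCartan a → ∃ i, cX hp (t i) a ≠ 1)
    (h2 : ∀ w : W, (∀ i a, IsRoot cs hp.isCartan a → cX hp (t i) (rep cs hp.isCartan w a) = cX hp (t i) a) → w = 1)
    {c : ↥(D.group k)} (hc : ∀ i, c * t i = t i * c) : c ∈ TT D k := by
  have H := tow hp cs hk p
  have C := coordsL hp cs hk p
  rw [← TL_eq hp hk, ← XL_eq hp hk] at C
  have ht' : ∀ i, t i ∈ TL (Tj hp (k := k)) := fun i => by rw [TL_eq hp hk]; exact ht i
  have hcG : c ∈ GG cs hp.isCartan (TL (Tj hp (k := k))) (XL (Xj hp)) := by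
    rw [GG_eq_top hp cs hk]; exact Subgroup.mem_top c
  obtain ⟨j1, h3⟩ := H.exists_level (S := fun j => (Tj hp (k := k) j : Set ↥(D.group k))) (fun _ _ hab => H.monoT hab)
    (f := t) fun i => H.mem_TL.1 (ht' i)
  obtain ⟨j2, h4⟩ := H.mem_GG.1 hcG
  obtain ⟨j, a1, a2⟩ := H.dir j1 j2
  have hS : Set.range t ⊆ (Tj hp (k := k) j : Set ↥(D.group k)) := by
    rintro _ ⟨i, rfl⟩
    exact H.monoT a1 (h3 i)
  have hcS : c ∈ Subgroup.centralizer (Set.range t) := by
    rw [Subgroup.mem_centralizer_iff]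
    rintro _ ⟨i, rfl⟩
    exact (hc i).symm
  obtain ⟨u, hu, w, n, hn, hnc, v, hv, e⟩ :=
    Cfsg.Agent.Nodes.NormalForm.mem_centralizer (H.rgd j) hS (H.mono_GG a2 h4) hcS
  have hbot : RGD.Sup (fun x => Xj hp j x ⊓ Subgroup.centralizer (Set.range t)) (RGD.Pos cs hp.isCartan) ≤ ⊥ := by
    refine RGD.Sup_le fun x hx => ?_
    rintro y ⟨hy, hyc⟩
    rw [Subgroup.mem_bot]
    by_contra hy1
    obtain ⟨i, hi⟩ := h1 x hx.1
    refine hi ?_
    have h5 : x ∈ Sx cs hp.isCartan (ch hp) (t i) := by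
      refine mem_Sx_of_centralizer C (ht' i) hx.1 (le_XL j x hy) hy1 ?_
      rw [Subgroup.mem_centralizer_singleton_iff]
      exact (Subgroup.mem_centralizer_iff.1 hyc (t i) ⟨i, rfl⟩).symm
    rw [cX_root hp cs (ht i) hx.1]
    exact h5.2
  have hu1 := Subgroup.mem_bot.1 (hbot hu)
  have hv1 := Subgroup.mem_bot.1 (hbot hv)
  rw [hu1, hv1, one_mul, mul_one] at e
  subst e
  have hnL := H.rp_up hn
  have hw : w = 1 := by
    refine h2 w fun i a ha => ?_
    have h3 := C.chi_rp H.nsys hnL ha (ht' i)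
    have h4 : c * t i * c⁻¹ = t i := by rw [hc i]; group
    rw [h4] at h3
    rw [cX_root hp cs (ht i) (ha.act w), cX_root hp cs (ht i) ha]
    exact h3
  subst hw
  have h3 := hnL.mem_of_one
  rwa [TL_eq hp hk] at h3

end Cfsg.Agent.H105.Sc
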