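import Cfsg.Agent.H105.Sc.Tor
import Cfsg.Agent.H341.Pron.TorCent

/-!
# Sylow 2-subgroups of `F4(q)`, `E8(q)`, `q` odd, contain their centralisers (S2223, HALLPRO, task 4231; helper105)

`sc_tor` : abstract; `sc_of` : groups of type `D` with unimodular Cartan matrix and `-1 ∈ W`; `sc_F4`, `sc_E8`.
-/

set_option autoImplicit false
set_option linter.unusedSectionVars false

namespace Cfsg.Agent.H105.Sc

open Subgroup Cfsg.Agent.H796.TorRow Cfsg.Agent.H796.TorAbs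

universe u

/-- one Sylow subgroup is enough. -/
theorem sc_of_one {G : Type u} [Group G] [Finite G] (P : Sylow 2 G)
    (hP : centralizer ((P : Subgroup G) : Set G) ≤ (P : Subgroup G)) : Cfsg.Agent.H408.Pron.SC G := by
  have : Fact (Nat.Prime 2) := ⟨Nat.prime_two⟩
  intro S c hc
  obtain ⟨g, rfl⟩ := MulAction.exists_smul_eq G P S
  rw [mem_centralizer_iff] at hc
  have hmem : ∀ x : G, x ∈ ((g • P : Sylow 2 G) : Subgroup G) ↔ g⁻¹ * x * g ∈ (P : Subgroup G) := by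
    intro x
    rw [Sylow.coe_subgroup_smul, Subgroup.mem_pointwise_smul_iff_inv_smul_mem, ← map_inv, MulAut.smul_def,
      MulAut.conj_apply, inv_inv]
  rw [hmem]
  apply hP
  rw [mem_centralizer_iff]
  intro x hx
  have h1 : g * x * g⁻¹ ∈ ((g • P : Sylow 2 G) : Subgroup G) := by
    rw [hmem]
    have e : g⁻¹ * (g * x * g⁻¹) * g = x := by group
    rw [e]
    exact hx
  have h2 := hc _ h1
  calc x * (g⁻¹ * c * g) = g⁻¹ * ((g * x * g⁻¹) * c) * g := by group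
    _ = g⁻¹ * (c * (g * x * g⁻¹)) * g := by rw [h2]
    _ = g⁻¹ * c * g * x := by group

section

variable {G : Type*} [Group G] {N : Subgroup G} {W : Type*} [Group W] {l : ℕ} {r : ↥N →* W}
    {act : W →* Module.End ℤ (Fin l → ℤ)} {k : Type*} [Field k] {χ : G → (Fin l → ℤ) → k} {ζ : k}
    (H : Tor r act χ ζ)

include H

/-- **Sylow 2-subgroups contain their centralisers.** -/
theorem sc_tor [Finite G] (hidx : ¬ 2 ∣ N.index) {w0 : W} (hw0 : ∀ x, act w0 x = -x) (hw2 : w0 ^ 2 ^ 1 = 1)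
    (hcent : ∀ g : G, (∀ a : ↥N, r a = 1 → a ^ 4 = 1 → g * (a : G) = (a : G) * g) →
      ∃ b : ↥N, r b = 1 ∧ (b : G) = g) : Cfsg.Agent.H408.Pron.SC G := by
  classical
  have : Fact (Nat.Prime 2) := ⟨Nat.prime_two⟩
  obtain ⟨p, hp, j, hj⟩ := H.exists_lift hw2
  have hpp : IsPGroup 2 (zpowers p) := by
    rintro ⟨_, i, rfl⟩
    refine ⟨j, Subtype.ext ?_⟩
    show (p ^ i) ^ 2 ^ j = 1
    rw [← zpow_natCast, ← zpow_mul, mul_comm, zpow_mul, zpow_natCast, hj, one_zpow]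
  obtain ⟨Q, hQ⟩ := hpp.exists_le_sylow
  have hpQ : p ∈ Q := hQ (mem_zpowers p)
  have hP2 : IsPGroup 2 ((Q : Subgroup ↥N).map N.subtype) := Q.2.map _
  have hPi : ¬ 2 ∣ ((Q : Subgroup ↥N).map N.subtype).index := by
    rw [index_map_subtype, Nat.prime_two.dvd_mul]
    rintro (h | h)
    · exact Q.not_dvd_index h
    · exact hidx h
  obtain ⟨P, hP⟩ : ∃ P : Sylow 2 G, (P : Subgroup G) = (Q : Subgroup ↥N).map N.subtype :=
    ⟨hP2.toSylow hPi, IsPGroup.toSylow_coe _ _⟩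
  have hPc : centralizer ((P : Subgroup G) : Set G) ≤ (P : Subgroup G) := by
    intro c hc
    rw [mem_centralizer_iff] at hc
    have hc' : ∀ a : ↥N, a ∈ Q → (a : G) * c = c * a := fun a ha => hc a (by
      rw [SetLike.mem_coe, hP]
      exact ⟨a, ha, rfl⟩)
    obtain ⟨b, hb1, rfl⟩ := hcent c fun a ha h4 => (hc' a (H.mem_sylow ha h4 Q)).symm
    have h1 : b ^ 2 = 1 := by
      have hb2 : r (b ^ 2) = 1 := by rw [map_pow, hb1, one_pow]
      refine H.inj _ hb2 fun x => ?_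
      have e1 : (p : G) * b * (p : G)⁻¹ = b := by rw [hc' p hpQ]; group
      have e2 := H.chi_act p b hb1 x
      rw [e1, hp, hw0] at e2
      rw [sq, Subgroup.coe_mul, H.mul b b hb1 hb1]
      nth_rewrite 1 [← e2]
      rw [← H.add b hb1, neg_add_cancel, H.zero b hb1]
    have h4 : b ^ 4 = 1 := by
      rw [show 4 = 2 * 2 from rfl, pow_mul, h1, one_pow]
    have hbQ : b ∈ Q := H.mem_sylow hb1 h4 Q
    rw [hP]
    exact ⟨b, hbQ, rfl⟩
  exact sc_of_one P hPc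

end

open CoxeterSystem Cfsg Cfsg.Lie Cfsg.Lie.ChevalleyDatum
open Cfsg.Agent.ChevalleyStructure Cfsg.Agent.ChevalleyStructure.Elts Cfsg.Agent.ChevalleyStructure.CoxeterGeom
  Cfsg.Agent.ChevalleyStructure.CoxeterGeomTypes Cfsg.Agent.ChevalleyStructure.NPerm
  Cfsg.Agent.ChevalleyStructure.RootVec
open Cfsg.Agent.Tits.Roots Cfsg.Agent.Tits.Core Cfsg.Agent.Nodes Cfsg.Agent.Nodes.Reps Cfsg.Agent.Nodes.BNOf
  Cfsg.Agent.Nodes.RGDChev
open Cfsg.Agent.H129.TorusChar Cfsg.Agent.H129.WData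
open Cfsg.Agent.H796.TorInst Cfsg.Agent.H796.TorData

/-- the group of type `D` -/
theorem sc_of {D : ChevalleyDatum} {l : ℕ} {M : CoxeterMatrix (Fin l)} (hp : IsType D l M)
    {W : Type*} [Group W] (cs : CoxeterSystem M W) [Finite W] {F : Type u} [Field F] [Fintype F] {q : ℕ}
    (hq : Fintype.card F = q) (hodd : Odd q) {B' : Fin l → Fin l → ℤ} (hB : InvC D l 1 B') (hl : 0 < l)
    (hminus : ∃ w0 : W, ∀ x, rep cs hp.isCartan w0 x = -x)
    (hK : ∀ w : W, (∀ x, ∃ y, rep cs hp.isCartan w x - x = (2 : ℤ) • y) →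
      w = 1 ∨ ∀ x, rep cs hp.isCartan w x = -x)
    (hcard : ∀ m : ℕ, 4 ∣ m → m ≠ 0 → (q = m + 1 ∨ q + 1 = m) → ∀ c : ℕ,
      m ^ l * Nat.card W * c = Nat.card ↥(D.group F) → ¬ 2 ∣ c) : Cfsg.Agent.H408.Pron.SC ↥(D.group F) := by
  have : Finite ↥(D.group F) := inferInstance
  have hq1 : 1 < q := by rw [← hq]; exact Fintype.one_lt_card
  obtain ⟨m, w0, s, hs, hw0, hms, h4, hm0, hqm⟩ : ∃ (m : ℕ) (w0 : W) (s : ℤ), (s = 1 ∨ s = -1) ∧
      (∀ x, rep cs hp.isCartan w0 x = s • x) ∧ ((m : ℤ) = q - s) ∧ 4 ∣ m ∧ m ≠ 0 ∧ (q = m + 1 ∨ q + 1 = m) := by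
    obtain ⟨c, hc⟩ := hodd
    rcases Nat.even_or_odd' c with ⟨d, hd | hd⟩
    · refine ⟨4 * d, 1, 1, Or.inl rfl, fun x => by rw [map_one, Module.End.one_apply, one_smul], ?_,
        ⟨d, rfl⟩, by omega, by omega⟩
      push_cast
      omega
    · obtain ⟨w0, hw0⟩ := hminus
      refine ⟨4 * (d + 1), w0, -1, Or.inr rfl, fun x => by rw [hw0, neg_one_smul], ?_, ⟨d + 1, rfl⟩, by omega,
        by omega⟩
      push_cast
      omega
  obtain ⟨N, r, χ, ζ, H, hN, hcent⟩ := exists_tor_cent hp cs hl hK hq hB hs hw0 hms h4 hm0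
  obtain ⟨v, hv⟩ := hminus
  refine sc_tor H (hcard m h4 hm0 hqm _ ?_) hv ?_ hcent
  · rw [← hN, N.card_mul_index]
  · apply rep_injective cs hp.isCartan
    apply LinearMap.ext
    intro x
    rw [pow_one, sq, rep_mul_apply, hv, hv, _root_.neg_neg, map_one, Module.End.one_apply]

section

open Cfsg.Agent.H796.RowF4

/-- **`F4(q)`, `q` odd** -/
theorem sc_F4 {F : Type u} [Field F] [Fintype F] (hodd : Odd (Fintype.card F)) :
    Cfsg.Agent.H408.Pron.SC ↥(chevF4.group F) := by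
  obtain ⟨q, hq⟩ : ∃ q, Fintype.card F = q := ⟨_, rfl⟩
  rw [hq] at hodd
  have hW : Nat.card CoxeterMatrix.F₄.Group = 1152 :=
    Cfsg.Agent.S1092.result (⟨4, CoxeterMatrix.F₄⟩, 1152) (by simp)
  have : Finite CoxeterMatrix.F₄.Group := Nat.finite_of_card_ne_zero (by rw [hW]; norm_num)
  obtain ⟨cs, -⟩ : ∃ cs : CoxeterSystem CoxeterMatrix.F₄ CoxeterMatrix.F₄.Group, True :=
    ⟨CoxeterMatrix.F₄.toCoxeterSystem, trivial⟩
  have c1 := chain_rep isType cs hA Lc_ok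
  have c2 := rep_mul_mat isType cs c1 c1 hC2
  have c4 := rep_mul_mat isType cs c2 c2 hC4
  have c6 := rep_mul_mat isType cs c4 c2 hC6
  refine sc_of isType cs hq hodd invC_F4 (by norm_num) ⟨_, neg_of_mat isType cs c6 hC6'⟩
    (hK_of isType cs hKOK (by norm_num)) ?_
  intro m hm hm0 hqm c hc h2c
  refine odd_of_card (l := 4) hm hm0 hqm [2, 6, 8, 12] (by decide) rfl (c := c) (N := 24) ?_ h2c
  rw [S1062.result hq, hW] at hc
  simp only [List.prod_cons, List.prod_nil, List.map_cons, List.map_nil]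
  calc m ^ 4 * (2 * (6 * (8 * (12 * 1)))) * c = m ^ 4 * 1152 * c := by ring
    _ = q ^ 24 * (q ^ 2 - 1) * (q ^ 6 - 1) * (q ^ 8 - 1) * (q ^ 12 - 1) := hc
    _ = _ := by ring

end

section

open Cfsg.Agent.H796.RowE8

/-- **`E8(q)`, `q` odd** -/
theorem sc_E8 {F : Type u} [Field F] [Fintype F] (hodd : Odd (Fintype.card F)) :
    Cfsg.Agent.H408.Pron.SC ↥(chevE8.group F) := by
  obtain ⟨q, hq⟩ : ∃ q, Fintype.card F = q := ⟨_, rfl⟩
  rw [hq] at hodd
  have hW : Nat.card CoxeterMatrix.E₈.Group = 696729600 :=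
    Cfsg.Agent.S1093.result (⟨8, CoxeterMatrix.E₈⟩, 696729600) (by simp)
  have : Finite CoxeterMatrix.E₈.Group := Nat.finite_of_card_ne_zero (by rw [hW]; norm_num)
  obtain ⟨cs, -⟩ : ∃ cs : CoxeterSystem CoxeterMatrix.E₈ CoxeterMatrix.E₈.Group, True :=
    ⟨CoxeterMatrix.E₈.toCoxeterSystem, trivial⟩
  have c1 := chain_rep isType cs hA Lc_ok
  have c2 := rep_mul_mat isType cs c1 c1 hC2
  have c4 := rep_mul_mat isType cs c2 c2 hC4
  have c3 := rep_mul_mat isType cs c2 c1 hC3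
  have c7 := rep_mul_mat isType cs c4 c3 hC7
  have c8 := rep_mul_mat isType cs c4 c4 hC8
  have c15 := rep_mul_mat isType cs c8 c7 hC15
  refine sc_of isType cs hq hodd invC_E8 (by norm_num) ⟨_, neg_of_mat isType cs c15 hC15'⟩
    (hK_of isType cs hKOK (by norm_num)) ?_
  intro m hm hm0 hqm c hc h2c
  refine odd_of_card (l := 8) hm hm0 hqm [2, 8, 12, 14, 18, 20, 24, 30] (by decide) rfl (c := c) (N := 120) ?_ h2c
  rw [S1065.result hq, hW] at hc
  simp only [List.prod_cons, List.prod_nil, List.map_cons, List.map_nil]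
  calc m ^ 8 * (2 * (8 * (12 * (14 * (18 * (20 * (24 * (30 * 1)))))))) * c = m ^ 8 * 696729600 * c := by ring
    _ = q ^ 120 * (q ^ 2 - 1) * (q ^ 8 - 1) * (q ^ 12 - 1) * (q ^ 14 - 1) * (q ^ 18 - 1) * (q ^ 20 - 1) *
      (q ^ 24 - 1) * (q ^ 30 - 1) := hc
    _ = _ := by ring

end

end Cfsg.Agent.H105.Sc
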