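import Cfsg.Agent.H796.TorInst
import Cfsg.Agent.H105.Sc.Fam

/-!
# The centraliser of the 4-torsion of a torus `±1` (helper105)

`exists_tor_cent` : helper796's `exists_tor` with the additional conclusion that the elements of `D.group F` commuting
with the 4-torsion of the torus are in the torus.
-/

set_option autoImplicit false
set_option linter.unusedSectionVars false

namespace Cfsg.Agent.H105.Sc

open CoxeterSystem Cfsg Cfsg.Lie Cfsg.Lie.ChevalleyDatum
open Cfsg.Agent.ChevalleyStructure Cfsg.Agent.ChevalleyStructure.Elts Cfsg.Agent.ChevalleyStructure.CoxeterGeom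
  Cfsg.Agent.ChevalleyStructure.CoxeterGeomTypes Cfsg.Agent.ChevalleyStructure.NPerm
open Cfsg.Agent.Tits.Roots Cfsg.Agent.Tits.Core Cfsg.Agent.Nodes Cfsg.Agent.Nodes.Reps Cfsg.Agent.Nodes.BNOf
  Cfsg.Agent.Nodes.RGDChev Cfsg.Agent.Nodes.Bruhat Cfsg.Agent.Nodes.SubComb Cfsg.Agent.Nodes.Coroot
open Cfsg.Agent.KFacts.RgdField Cfsg.Agent.KFacts.RgdChevCoord Cfsg.Agent.BpExc.TorCent Cfsg.Agent.BpExc.TorChev
open Cfsg.Agent.GpExc.Field Cfsg.Agent.BpExc.Tow Cfsg.Agent.BpExc.TowChev Cfsg.Agent.BpExc.Fr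
  Cfsg.Agent.BpExc.LangFr Cfsg.Agent.LangThm Cfsg.Agent.BpExc Cfsg.Agent.H129.TorusChar Cfsg.Agent.H129.TorusCent
  Cfsg.Agent.H129.TorusTw Cfsg.Agent.H129.TorusMain Cfsg.Agent.H129.TorusUntw Cfsg.Agent.H129.TorAct
open Cfsg.Agent.H796.TorAbs Cfsg.Agent.H796.TorInst

universe u

variable {D : ChevalleyDatum} {l : ℕ} {M : CoxeterMatrix (Fin l)} (hp : IsType D l M)
  {W : Type*} [Group W] (cs : CoxeterSystem M W)

/-- no root is divisible by 4. -/
theorem not_four_dvd_root {a : Fin l → ℤ} (ha : IsRoot cs hp.isCartan a) : ¬ ∀ i, (4 : ℤ) ∣ a i := by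
  intro h4
  obtain ⟨w, j, rfl⟩ := ha
  choose y hy using h4
  have h1 : rep cs hp.isCartan w (sr j) = (4 : ℤ) • y := by
    funext i
    rw [hy i, Pi.smul_apply, smul_eq_mul]
  have h2 : (sr j : Fin l → ℤ) = (4 : ℤ) • rep cs hp.isCartan w⁻¹ y := by
    rw [← map_zsmul, ← h1, ← rep_mul_apply, inv_mul_cancel, map_one, Module.End.one_apply]
  have h3 := congrFun h2 j
  rw [sr_self, Pi.smul_apply, smul_eq_mul] at h3
  omega

/-- an element of the Weyl group that is trivial modulo 4 is trivial. -/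
theorem eq_one_of_mod_four (hl : 0 < l)
    (hK : ∀ w : W, (∀ x, ∃ y, rep cs hp.isCartan w x - x = (2 : ℤ) • y) → w = 1 ∨ ∀ x, rep cs hp.isCartan w x = -x)
    {w : W} (h : ∀ j i, (4 : ℤ) ∣ rep cs hp.isCartan w (sr j) i - (sr j : Fin l → ℤ) i) : w = 1 := by
  choose y hy using h
  have h1 : ∀ j, rep cs hp.isCartan w (sr j) = sr j + (4 : ℤ) • y j := by
    intro j
    funext i
    rw [Pi.add_apply, Pi.smul_apply, smul_eq_mul, ← hy j i]
    ring
  have h2 : ∀ x : Fin l → ℤ, ∃ z, rep cs hp.isCartan w x - x = (4 : ℤ) • z := by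
    intro x
    have hx : x = ∑ j, x j • (sr j : Fin l → ℤ) := by
      funext i
      rw [Finset.sum_apply, Finset.sum_eq_single i]
      · rw [Pi.smul_apply, sr_self, smul_eq_mul, mul_one]
      · intro j _ hj
        rw [Pi.smul_apply, sr_ne (Ne.symm hj), smul_eq_mul, mul_zero]
      · intro hi
        exact absurd (Finset.mem_univ i) hi
    refine ⟨∑ j, x j • y j, ?_⟩
    have h3 : rep cs hp.isCartan w x = ∑ j, x j • rep cs hp.isCartan w (sr j) := by
      conv_lhs => rw [hx]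
      rw [map_sum]
      exact Finset.sum_congr rfl fun j _ => map_zsmul _ _ _
    calc rep cs hp.isCartan w x - x = ∑ j, x j • rep cs hp.isCartan w (sr j) - ∑ j, x j • (sr j : Fin l → ℤ) := by
          rw [← h3, ← hx]
      _ = ∑ j, (4 : ℤ) • (x j • y j) := by
          rw [← Finset.sum_sub_distrib]
          refine Finset.sum_congr rfl fun j _ => ?_
          rw [← smul_sub, h1, add_sub_cancel_left, smul_comm]
      _ = (4 : ℤ) • ∑ j, x j • y j := by rw [Finset.smul_sum]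
  rcases hK w (fun x => by
    obtain ⟨z, hz⟩ := h2 x
    refine ⟨(2 : ℤ) • z, ?_⟩
    rw [hz, smul_smul]
    norm_num) with h3 | h3
  · exact h3
  · exfalso
    obtain ⟨z, hz⟩ := h2 (sr ⟨0, hl⟩)
    rw [h3] at hz
    have h4 := congrFun hz ⟨0, hl⟩
    rw [Pi.sub_apply, Pi.neg_apply, sr_self, Pi.smul_apply, smul_eq_mul] at h4
    omega

section Fin

variable {F : Type u} [Field F] [Fintype F]

include cs in
/-- **The normaliser of the torus `±1`** (helper796's theorem, with the centraliser of the 4-torsion). -/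
theorem exists_tor_cent [Finite W] (hl : 0 < l)
    (hK : ∀ w : W, (∀ x, ∃ y, rep cs hp.isCartan w x - x = (2 : ℤ) • y) → w = 1 ∨ ∀ x, rep cs hp.isCartan w x = -x) {q : ℕ} (hq : Fintype.card F = q) {B' : Fin l → Fin l → ℤ} (hB : InvC D l 1 B')
    {w0 : W} {s : ℤ} (hs : s = 1 ∨ s = -1) (hw0 : ∀ x, rep cs hp.isCartan w0 x = s • x) {m : ℕ}
    (hm : (m : ℤ) = q - s) (h4 : 4 ∣ m) (hm0 : m ≠ 0) :
    ∃ (N : Subgroup ↥(D.group F)) (r : ↥N →* W) (χ : ↥(D.group F) → (Fin l → ℤ) → AlgebraicClosure F)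
      (ζ : AlgebraicClosure F), Tor r (rep cs hp.isCartan) χ ζ ∧ Nat.card N = m ^ l * Nat.card W ∧
        ∀ g : ↥(D.group F), (∀ a : ↥N, r a = 1 → a ^ 4 = 1 → g * (a : ↥(D.group F)) = (a : ↥(D.group F)) * g) →
          ∃ b : ↥N, r b = 1 ∧ (b : ↥(D.group F)) = g := by
  obtain ⟨p, e, hpF, hpc, hpk, he, rfl, hk⟩ := exists_closure hq
  have hN : NSys M (TT D (AlgebraicClosure F)) (nc hp (AlgebraicClosure F)) := nsys_of_locFin hp cs hk p
  obtain ⟨n, hn⟩ := exists_rp cs hN w0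
  obtain ⟨z, hz⟩ := lang_all hp cs he isFrob_phi (fr_phi (p := p) (e := e) hp cs) 1 n
  rw [map_one, one_mul] at hz
  set σ := phi D (AlgebraicClosure F) p e with hσ
  have hσz : σ z = z * n := by rw [hz]; group
  -- the twisted embedding
  obtain ⟨e1, he1⟩ : ∃ e1 : ↥(D.group F) →* ↥(D.group (AlgebraicClosure F)),
      ∀ x, e1 x = z⁻¹ * emb hp.inList (algebraMap F (AlgebraicClosure F)) x * z :=
    ⟨(MulAut.conj z⁻¹).toMonoidHom.comp (emb hp.inList (algebraMap F (AlgebraicClosure F))), fun x => by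
      show z⁻¹ * _ * z⁻¹⁻¹ = _
      rw [inv_inv]⟩
  have hinj : Function.Injective e1 := by
    intro x y h
    rw [he1, he1] at h
    exact emb_injective hp.inList _ (mul_left_cancel (mul_right_cancel h))
  have hfix : ∀ x, n * σ (e1 x) * n⁻¹ = e1 x := by
    intro x
    have h1 := phi_emb (e := e) hp (algebraMap F (AlgebraicClosure F)) hq x
    rw [he1, map_mul, map_mul, map_inv, ← hσ] at *
    rw [h1, hσz]
    group
  have hrange : ∀ y, n * σ y * n⁻¹ = y → ∃ x, e1 x = y := by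
    intro y hy
    have h1 : σ (z * y * z⁻¹) = z * y * z⁻¹ := by
      rw [map_mul, map_mul, map_inv, hσz]
      calc z * n * σ y * (z * n)⁻¹ = z * (n * σ y * n⁻¹) * z⁻¹ := by group
        _ = z * y * z⁻¹ := by rw [hy]
    obtain ⟨x, hx⟩ := fix_range hp cs _ hq hB one_ne_zero (fun a => ⟨a, pow_one a⟩) h1
    refine ⟨x, ?_⟩
    rw [he1, hx]
    group
  -- `N`
  obtain ⟨N, hNdef⟩ : ∃ N : Subgroup ↥(D.group F), ∀ x, x ∈ N ↔ ∃ w, Rp cs hN w (e1 x) :=
    ⟨(NN cs hN).comap e1, fun x => Iff.rfl⟩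
  have hex : ∀ x : ↥N, ∃ w, Rp cs hN w (e1 x) := fun x => (hNdef x).1 x.2
  choose f hf using hex
  let r : ↥N →* W :=
    { toFun := f
      map_one' := rp_inj hp cs hk p hB (hf 1) (by rw [Subgroup.coe_one, map_one]; exact rp_one)
      map_mul' := fun a b => rp_inj hp cs hk p hB (hf (a * b)) (by
        rw [Subgroup.coe_mul, map_mul]; exact (hf a).mul (hf b)) }
  have hr : ∀ x : ↥N, Rp cs hN (r x) (e1 x) := hf
  have hker : ∀ x : ↥N, r x = 1 ↔ e1 x ∈ TT D (AlgebraicClosure F) := by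
    intro x
    constructor
    · intro h
      have h1 := hr x
      rw [h] at h1
      exact h1.mem_of_one
    · intro h
      exact rp_inj hp cs hk p hB (hr x) (rp_of_mem h)
  have hmk : (m : AlgebraicClosure F) ≠ 0 := by
    rw [Ne, CharP.cast_eq_zero_iff (AlgebraicClosure F) p]
    intro h1
    have h2 : (p : ℤ) ∣ (m : ℤ) := Int.natCast_dvd_natCast.2 h1
    have h3 : (p : ℤ) ∣ ((p ^ e : ℕ) : ℤ) := Int.natCast_dvd_natCast.2 (dvd_pow_self p he.ne')
    have h4' : (p : ℤ) ∣ s := by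
      have := dvd_sub h3 h2
      rwa [hm, sub_sub_cancel] at this
    have h5 : (p : ℤ) ∣ 1 := by
      rw [← sq_eq hs]
      exact h4'.mul_left s
    have h6 := Int.natCast_dvd_natCast.1 (by simpa using h5 : (p : ℤ) ∣ ((1 : ℕ) : ℤ))
    exact hpF.out.one_lt.ne' (Nat.dvd_one.1 h6)
  have htw : ∀ t ∈ TT D (AlgebraicClosure F), (n * σ t * n⁻¹ = t ↔ ∀ i, cX hp t (sr i) ^ m = 1) :=
    fun t ht => tw_iff hp cs hs hw0 hm hk hn ht
  -- surjectivity
  have hsurj : Function.Surjective r := by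
    intro v
    obtain ⟨m0, hm0r, hm0f⟩ := exists_std (p := p) (e := e) (hN := hN) hp cs v
    have hcomm : w0 * v * w0⁻¹ = v := by
      apply rep_injective cs hp.isCartan
      apply LinearMap.ext
      intro x
      rw [mul_assoc, rep_mul_apply, rep_mul_apply, hw0, ← map_zsmul, ← hw0, rep_apply_inv]
    have h1 : Rp cs hN v (n * σ m0 * n⁻¹) := by
      have h2 := (hn.mul hm0r).mul hn.inv
      rw [hcomm] at h2
      rw [hσ, hm0f]
      exact h2
    have h3 : m0⁻¹ * (n * σ m0 * n⁻¹) ∈ TT D (AlgebraicClosure F) := hm0r.unique h1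
    obtain ⟨t, ht, h5⟩ := tw_lang hp cs hs hw0 hm hk hn hm0 hB h3
    have h6 : n * σ (m0 * t) * n⁻¹ = m0 * t := by
      rw [map_mul]
      calc n * (σ m0 * σ t) * n⁻¹ = m0 * ((m0⁻¹ * (n * σ m0 * n⁻¹)) * (n * σ t * n⁻¹)) := by group
        _ = m0 * t := by rw [← h5]
    obtain ⟨x, hx⟩ := hrange _ h6
    have h7 : Rp cs hN v (e1 x) := by
      rw [hx]
      exact hm0r.mul_mem_right ht
    exact ⟨⟨x, (hNdef x).2 ⟨v, h7⟩⟩, rp_inj hp cs hk p hB (hr _) h7⟩
  -- the root of unity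
  have h4k : ((4 : ℕ) : AlgebraicClosure F) ≠ 0 := by
    obtain ⟨c, hc⟩ := h4
    intro h0
    apply hmk
    rw [hc, Nat.cast_mul, h0, zero_mul]
  have : NeZero ((4 : ℕ) : AlgebraicClosure F) := ⟨h4k⟩
  obtain ⟨ζ, hζ⟩ := HasEnoughRootsOfUnity.exists_primitiveRoot (AlgebraicClosure F) 4
  have hζ0 : ζ ≠ 0 := hζ.ne_zero (by norm_num)
  have hrich : ∀ i : Fin l, ∃ t : ↥N, r t = 1 ∧ t ^ 4 = 1 ∧ ∀ x, cX hp (e1 t) x = ζ ^ (x i) := by
    intro i
    have hφ : IsMC (fun x : Fin l → ℤ => ζ ^ x i) :=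
      ⟨by simp, fun y z => by show ζ ^ (y i + z i) = _; rw [zpow_add₀ hζ0]⟩
    obtain ⟨t, ht, hc⟩ := exists_cX hp hB one_ne_zero hφ fun j => ⟨_, pow_one _⟩
    have hz4 : ∀ a : ℤ, (ζ ^ a) ^ 4 = 1 := fun a => by
      rw [← zpow_natCast, ← zpow_mul, mul_comm, zpow_mul, zpow_natCast, hζ.pow_eq_one, one_zpow]
    have h1 : n * σ t * n⁻¹ = t := by
      rw [htw t ht]
      intro j
      obtain ⟨c, hc4⟩ := h4
      rw [hc, hc4, pow_mul, hz4, one_pow]
    obtain ⟨x, hx⟩ := hrange t h1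
    have h2 : Rp cs hN 1 (e1 x) := by rw [hx]; exact rp_of_mem ht
    refine ⟨⟨x, (hNdef x).2 ⟨1, h2⟩⟩, rp_inj hp cs hk p hB (hr _) h2, ?_, fun y => ?_⟩
    · apply Subtype.ext
      apply hinj
      show e1 (x ^ 4) = e1 1
      rw [map_pow, map_one, hx]
      refine cX_inj hp (pow_mem ht 4) (one_mem _) fun j => ?_
      rw [cX_one, cX_pow hp ht, hc, hz4]
    · show cX hp (e1 x) y = _
      rw [hx]
      exact hc y
  refine ⟨N, r, fun x => cX hp (e1 x), ζ, ?_, ?_, ?_⟩
  · exact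
      { surj := hsurj
        comm := by
          intro a b ha hb
          apply Subtype.ext
          apply hinj
          rw [Subgroup.coe_mul, Subgroup.coe_mul, map_mul, map_mul]
          exact TT_comm hp _ ((hker a).1 ha) _ ((hker b).1 hb)
        mul := by
          intro a b ha hb x
          rw [map_mul]
          exact cX_mul hp ((hker a).1 ha) ((hker b).1 hb) x
        add := fun a ha x y => (isMC_cX hp ((hker a).1 ha)).add x y
        zero := fun a ha => (isMC_cX hp ((hker a).1 ha)).zero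
        inj := by
          intro a ha h
          apply Subtype.ext
          apply hinj
          rw [Subgroup.coe_one, map_one]
          refine cX_inj hp ((hker a).1 ha) (one_mem _) fun i => ?_
          rw [cX_one]
          exact h _
        chi_act := by
          intro x a ha y
          show cX hp (e1 ((x : ↥(D.group F)) * a * (x : ↥(D.group F))⁻¹)) _ = _
          rw [map_mul, map_mul, map_inv]
          exact cX_rp hp cs hk p (hr x) ((hker a).1 ha) y
        prim := hζ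
        rich := by
          intro i
          obtain ⟨t, h1, -, h2⟩ := hrich i
          exact ⟨t, h1, h2⟩ }
  · have h1 : Nat.card r.ker = m ^ l := by
      rw [← card_tor (k := AlgebraicClosure F) hp hB hmk]
      refine Nat.card_eq_of_bijective (fun x => ⟨e1 (x : ↥N), (hker _).1 (MonoidHom.mem_ker.1 x.2),
        (htw _ ((hker _).1 (MonoidHom.mem_ker.1 x.2))).1 (hfix _)⟩) ⟨?_, ?_⟩
      · intro x y h
        exact Subtype.ext (Subtype.ext (hinj (congrArg Subtype.val h)))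
      · rintro ⟨t, ht, h2⟩
        obtain ⟨x, hx⟩ := hrange t ((htw t ht).2 h2)
        have h3 : Rp cs hN 1 (e1 x) := by rw [hx]; exact rp_of_mem ht
        exact ⟨⟨⟨x, (hNdef x).2 ⟨1, h3⟩⟩, MonoidHom.mem_ker.2 (rp_inj hp cs hk p hB (hr _) h3)⟩, Subtype.ext hx⟩
    have h2 := r.ker.card_mul_index
    rw [Subgroup.index_ker, MonoidHom.range_eq_top.2 hsurj, Nat.card_congr Subgroup.topEquiv.toEquiv, h1] at h2
    exact h2.symm
  · intro g hg
    choose t ht1 ht4 htc using hrich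
    have hTT : e1 g ∈ TT D (AlgebraicClosure F) := by
      refine mem_TT_of_comm_fam hp cs hk p (t := fun i => e1 (t i)) (fun i => (hker _).1 (ht1 i)) ?_ ?_
        (fun i => by rw [← map_mul, ← map_mul, hg (t i) (ht1 i) (ht4 i)])
      · intro a ha
        by_contra hcon
        push Not at hcon
        refine not_four_dvd_root hp cs ha fun i => ?_
        have h1 := hcon i
        rw [htc i] at h1
        exact_mod_cast (hζ.zpow_eq_one_iff_dvd _).1 h1
      · intro w hw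
        refine eq_one_of_mod_four hp cs hl hK fun j i => ?_
        have h1 := hw i (sr j) (isRoot_sr cs hp.isCartan j)
        rw [htc i, htc i] at h1
        have h2 : ζ ^ (rep cs hp.isCartan w (sr j) i - (sr j : Fin l → ℤ) i) = 1 := by
          rw [zpow_sub₀ hζ0, h1, div_self (zpow_ne_zero _ hζ0)]
        exact_mod_cast (hζ.zpow_eq_one_iff_dvd _).1 h2
    have h1 : Rp cs hN 1 (e1 g) := rp_of_mem hTT
    exact ⟨⟨g, (hNdef g).2 ⟨1, h1⟩⟩, (hker _).2 hTT, rfl⟩

end Fin

end Cfsg.Agent.H105.Sc
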